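import Cfsg.Agent.Lib.Helper28.TCChain
import Cfsg.Agent.Lib.Helper93.J3.PD

set_option autoImplicit false
set_option maxRecDepth 100000

namespace Cfsg.Agent.Lib.Helper93.J3.L3

open Cfsg.Agent.Lib.Helper28

noncomputable def tabC0 : Tr := .leaf 0x99da1580d605408
noncomputable def auxC0 : Tr := .leaf 0x1e33008c013000c000
noncomputable def tabC1 : Tr := .leaf 0x86b66445c25414c
noncomputable def auxC1 : Tr := .leaf 0x1d4a5400d001400100
noncomputable def tabC2 : Tr := .leaf 0
noncomputable def auxC2 : Tr := .leaf 0
noncomputable def dC : Tr := .leaf 0x7018150101300811000100000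
noncomputable def tabCols : List Tr := [tabC0, tabC1, tabC2]
noncomputable def auxCols : List Tr := [auxC0, auxC1, auxC2]
def pairsC : List ((List ℕ × ℕ × List ℕ) × ℕ) := [
  (([0], 1, []), 1024),
  (([1], 0, []), 2048),
  (([0], 0, [1, 1, 1, 1, 1, 1, 1, 1]), 0)]
def subL : List ℕ := []
noncomputable def D : UB where
  tab := field tabCols 6 63 6 63
  aux := field auxCols 6 63 7 127
  dinfo := field [dC] 6 63 10 1023 0
  rb := 2
  RM := 3
  pb := 3
  PM := 7
  m := 10
  K := 2
  Kall := 3
  pairs := pairsC.map Prod.fst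
  isSub := fun x => subL.contains x
  fuel := 2
def ren : ℕ → ℕ
  | 0 => 3
  | 1 => 4
  | _ => 0
def linv : ℕ → ℕ
  | 0 => 1
  | 1 => 0
  | x => x
def relsL : List (List ℕ) := [
  [0, 0, 0, 0, 0, 0, 0, 0, 0, 0]]
noncomputable def Lk : Link where
  D := D
  ren := ren
  inv := linv
  rels := relsL
  pairsC := pairsC
  subL := subL
  n := 10
theorem chk_0 : allRange D.checkLabel 0 10 = true := by decide +kernel
theorem check_all : ∀ c < D.m, D.checkLabel c = true := by
  intro c hc
  have hc' : c < 10 := hc
  by_cases h0 : c < 10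
  · exact allRange_iff.mp chk_0 c (by omega) (by omega)
  omega
theorem pairs_ok : pairsC.all (pairOK (relsAll relsL linv 3) linv 2 3) = true := by decide +kernel
theorem relsK_ok : ∀ r ∈ relsAll relsL linv 3, ∀ y ∈ r, y < 3 := by decide +kernel
theorem core : Lk.Core Cfsg.Agent.Lib.Helper93.J3.W Cfsg.Agent.Lib.Helper93.J3.inv 5 [] where
  Kall := rfl
  invK := by decide +kernel
  invE := rfl
  relsIn := by decide +kernel
  Dpairs := rfl
  pairs := pairs_ok
  relsK := relsK_ok
  isSub := by
    intro x hx
    have hx' : subL.contains x = true := hx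
    show x ∈ subL
    simpa using hx'
  sub := by decide +kernel
  check := check_all
theorem fin_all : allBelow D.finalLabel 10 = true := by decide +kernel
theorem live_count : D.liveCount = 10 := by decide +kernel
theorem h0_ok : D.tg D.K 0 = 0 := by decide +kernel
theorem ok : Lk.OK Cfsg.Agent.Lib.Helper93.J3.W Cfsg.Agent.Lib.Helper93.J3.inv 5 [3, 4] [] where
  toCore := core
  gens := by decide +kernel
  hm := by decide
  h0 := h0_ok
  fin := allBelow_iff.mp fin_all
  count := live_count

end Cfsg.Agent.Lib.Helper93.J3.L3
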