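import Cfsg.Agent.Lib.Helper93.J3.L1
import Cfsg.Agent.Lib.Helper93.J3.L2
import Cfsg.Agent.Lib.Helper93.J3.L3

set_option autoImplicit false
set_option maxRecDepth 100000

namespace Cfsg.Agent.Lib.Helper93.J3

open Cfsg.Agent.Lib.Helper28

variable {G : Type*} [Group G] (v : ℕ → G)

theorem bound_3 : Finite (Sg v []) ∧ Nat.card (Sg v []) ≤ 1 := by
  rw [Sg_nil]
  exact ⟨inferInstance, by simp⟩

theorem bound_2 (hW : ∀ w ∈ W, evalW v w = 1) (hoinv : ∀ y < 5, v (inv y) = (v y)⁻¹) :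
    Finite (Sg v [3, 4]) ∧ Nat.card (Sg v [3, 4]) ≤ 10 := by
  obtain ⟨f, c⟩ := bound_3 v
  obtain ⟨f', c'⟩ := L3.ok.card_le v hW hoinv f
  exact ⟨f', le_trans c' (le_trans (Nat.mul_le_mul_left _ c) (by show 10 * 1 ≤ 10; norm_num))⟩

theorem bound_1 (hW : ∀ w ∈ W, evalW v w = 1) (hoinv : ∀ y < 5, v (inv y) = (v y)⁻¹) :
    Finite (Sg v [0, 3, 4]) ∧ Nat.card (Sg v [0, 3, 4]) ≤ 8160 := by
  obtain ⟨f, c⟩ := bound_2 v hW hoinv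
  obtain ⟨f', c'⟩ := L2.ok.card_le v hW hoinv f
  exact ⟨f', le_trans c' (le_trans (Nat.mul_le_mul_left _ c) (by show 816 * 10 ≤ 8160; norm_num))⟩

theorem bound_0 (hW : ∀ w ∈ W, evalW v w = 1) (hoinv : ∀ y < 5, v (inv y) = (v y)⁻¹) :
    Finite (Sg v [0, 1, 2, 3, 4]) ∧ Nat.card (Sg v [0, 1, 2, 3, 4]) ≤ 50232960 := by
  obtain ⟨f, c⟩ := bound_1 v hW hoinv
  obtain ⟨f', c'⟩ := L1.ok.card_le v hW hoinv f
  exact ⟨f', le_trans c' (le_trans (Nat.mul_le_mul_left _ c) (by show 6156 * 8160 ≤ 50232960; norm_num))⟩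

end Cfsg.Agent.Lib.Helper93.J3
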