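import Cfsg.Agent.Lib.Helper93.J3.Data

set_option autoImplicit false
set_option maxRecDepth 100000

namespace Cfsg.Agent.Lib.Helper93.J3

open Cfsg.Agent.Lib.Helper28
theorem lrel_4 : allRange (fun c => allList (fun w => L.checkRel w c) W) 3200 800 = true := by decide +kernel
theorem lrel_5 : allRange (fun c => allList (fun w => L.checkRel w c) W) 4000 800 = true := by decide +kernel
theorem lrel_6 : allRange (fun c => allList (fun w => L.checkRel w c) W) 4800 800 = true := by decide +kernel
theorem lrel_7 : allRange (fun c => allList (fun w => L.checkRel w c) W) 5600 556 = true := by decide +kernel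

end Cfsg.Agent.Lib.Helper93.J3
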