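import Cfsg.Agent.Lib.Helper93.J3.ChkU
import Cfsg.Agent.Lib.Helper93.J3.ChkL

set_option autoImplicit false
set_option maxRecDepth 100000

namespace Cfsg.Agent.Lib.Helper93.J3

open Cfsg.Agent.Lib.Helper28
abbrev S : Set (FreeGroup Gen) := ({FreeGroup.of .a, FreeGroup.of .t} : Set (FreeGroup Gen))
theorem ok : Q.OK S where
  pd := pd_ok
  letters := pd_letters
  DK := rfl
  DKall := rfl
  LK := rfl
  Linv := rfl
  Ln := rfl
  sigK := by decide
  subK := by decide
  Dpairs := rfl
  pairs := pairs_ok
  relsK := relsK_ok
  wordsK := pd_wordsK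
  sub := by
    intro x hx
    have hx' : x ∈ subL := by simpa [Q, D] using hx
    simp only [subL, List.mem_cons, List.mem_nil_iff, or_false] at hx'
    rcases hx' with rfl | rfl | rfl
    · rw [Prob.val_lt (Q := Q) (show 0 < 5 by decide)]
      exact Subgroup.mem_map_of_mem _ (Subgroup.subset_closure (by simp [Q, pd, lfree]))
    · rw [Prob.val_lt (Q := Q) (show 3 < 5 by decide)]
      exact Subgroup.mem_map_of_mem _ (Subgroup.subset_closure (by simp [Q, pd, lfree]))
    · rw [Prob.val_lt (Q := Q) (show 4 < 5 by decide)]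
      exact Subgroup.mem_map_of_mem _ (Subgroup.inv_mem _ (Subgroup.subset_closure (by simp)))
  check := check_all
  hm := by decide
  h0 := h0_ok
  fin := allBelow_iff.mp fin_all
  count := live_count
  valid :=
    { invK := by
        intro x hx
        have hx' : x < 5 := hx
        interval_cases x <;> exact ⟨by decide, rfl⟩
      point := allBelow_iff.mp point_ok
      tree := allBelow_iff.mp tree_ok }
  lrel := lrel_all
  S2 := by
    intro s hs
    simp only [S, Set.mem_insert_iff, Set.mem_singleton_iff] at hs
    rcases hs with rfl | rfl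
    · exact ⟨(.g 0), by simp [Q, subE], rfl⟩
    · exact ⟨(.g 3), by simp [Q, subE], rfl⟩
  lsub := lsub_ok

end Cfsg.Agent.Lib.Helper93.J3
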